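import Cfsg.Agent.H6.J4.D2.D0

set_option autoImplicit false
set_option maxRecDepth 100000
set_option Elab.async false

namespace Cfsg.H6.J4.D2

theorem k0 : allR (D.ok2 5) 0 100 = true := by decide +kernel

theorem k1 : allR (D.ok2 5) 100 100 = true := by decide +kernel

theorem k2 : allR (D.ok2 5) 200 100 = true := by decide +kernel

theorem k3 : allR (D.ok2 5) 300 100 = true := by decide +kernel

theorem k4 : allR (D.ok2 5) 400 100 = true := by decide +kernel

theorem k5 : allR (D.ok2 5) 500 100 = true := by decide +kernel

end Cfsg.H6.J4.D2
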