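import Cfsg.Agent.H6.J4.D2.D0

set_option autoImplicit false
set_option maxRecDepth 100000
set_option Elab.async false

namespace Cfsg.H6.J4.D2

theorem k6 : allR (D.ok2 5) 600 100 = true := by decide +kernel

theorem k7 : allR (D.ok2 5) 700 100 = true := by decide +kernel

theorem k8 : allR (D.ok2 5) 800 100 = true := by decide +kernel

theorem k9 : allR (D.ok2 5) 900 100 = true := by decide +kernel

theorem k10 : allR (D.ok2 5) 1000 100 = true := by decide +kernel

theorem k11 : allR (D.ok2 5) 1100 100 = true := by decide +kernel

end Cfsg.H6.J4.D2
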