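import Cfsg.Agent.H6.J4.D2.D0

set_option autoImplicit false
set_option maxRecDepth 100000
set_option Elab.async false

namespace Cfsg.H6.J4.D2

theorem k12 : allR (D.ok2 5) 1200 100 = true := by decide +kernel

theorem k13 : allR (D.ok2 5) 1300 100 = true := by decide +kernel

theorem k14 : allR (D.ok2 5) 1400 100 = true := by decide +kernel

theorem k15 : allR (D.ok2 5) 1500 100 = true := by decide +kernel

theorem k16 : allR (D.ok2 5) 1600 100 = true := by decide +kernel

theorem k17 : allR (D.ok2 5) 1700 100 = true := by decide +kernel

end Cfsg.H6.J4.D2
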