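import Cfsg.Agent.H6.J4.D2.D0

set_option autoImplicit false
set_option maxRecDepth 100000
set_option Elab.async false

namespace Cfsg.H6.J4.D2

theorem k18 : allR (D.ok2 5) 1800 100 = true := by decide +kernel

theorem k19 : allR (D.ok2 5) 1900 100 = true := by decide +kernel

theorem k20 : allR (D.ok2 5) 2000 100 = true := by decide +kernel

theorem k21 : allR (D.ok2 5) 2100 100 = true := by decide +kernel

theorem k22 : allR (D.ok2 5) 2200 100 = true := by decide +kernel

theorem k23 : allR (D.ok2 5) 2300 100 = true := by decide +kernel

end Cfsg.H6.J4.D2
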