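import Cfsg.Agent.H6.J4.D2.D0

set_option autoImplicit false
set_option maxRecDepth 100000
set_option Elab.async false

namespace Cfsg.H6.J4.D2

theorem k24 : allR (D.ok2 5) 2400 100 = true := by decide +kernel

theorem k25 : allR (D.ok2 5) 2500 100 = true := by decide +kernel

theorem k26 : allR (D.ok2 5) 2600 100 = true := by decide +kernel

theorem k27 : allR (D.ok2 5) 2700 100 = true := by decide +kernel

theorem k28 : allR (D.ok2 5) 2800 100 = true := by decide +kernel

theorem k29 : allR (D.ok2 5) 2900 100 = true := by decide +kernel

end Cfsg.H6.J4.D2
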